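import Cfsg.Agent.Lib.Sz.Simple

/-!
The points of the ovoid model and the projective ovoid of the Prelude.
-/

set_option autoImplicit false

namespace Cfsg.Lib.Sz

open Matrix MulAction

variable {F : Type*} [Field F] [Fintype F] {m : ℕ} (hm : 1 ≤ m) (hF : Fintype.card F = 2 ^ (2 * m + 1))

/-- The points of the ovoid model are the points of the Suzuki–Tits ovoid. -/
noncomputable def ovoidEquiv : (ovoidModel hm hF).Pt ≃ suzukiOvoid F m :=
  (Equiv.ofInjective _ (titsOfCard hF).proj_inj).trans
    (Equiv.setCongr ((titsOfCard hF).ovoid_eq (titsOfCard_σ hF)).symm)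

theorem coe_ovoidEquiv (p : (ovoidModel hm hF).Pt) :
    (ovoidEquiv hm hF p : Projectivization F (Fin 4 → F)) = (titsOfCard hF).proj p := rfl

theorem ovoidEquiv_smul (g : Cfsg.Sz F m) (p : (ovoidModel hm hF).Pt) :
    ovoidEquiv hm hF (g • p) = g • ovoidEquiv hm hF p :=
  Subtype.ext (ovoidModel_smul_proj hm hF g p).symm

theorem stabilizer_proj (p : (ovoidModel hm hF).Pt) :
    stabilizer (Cfsg.Sz F m) ((titsOfCard hF).proj p) = stabilizer (Cfsg.Sz F m) p := by
  ext g
  rw [mem_stabilizer_iff, mem_stabilizer_iff, ovoidModel_smul_proj hm hF]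
  exact (titsOfCard hF).proj_inj.eq_iff

theorem stabilizer_infinity :
    stabilizer (Cfsg.Sz F m) (suzukiPointInfinity F) = (ovoidModel hm hF).B :=
  stabilizer_proj hm hF (ovoidModel hm hF).inf

theorem stabilizer_zero :
    stabilizer (Cfsg.Sz F m) (suzukiPointZero F) =
      stabilizer (Cfsg.Sz F m) ((ovoidModel hm hF).pt 0 0) := by
  rw [← stabilizer_proj]
  congr 1
  simp [suzukiPointZero, Tits.proj, Model.pt, Tits.vec]

end Cfsg.Lib.Sz
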